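import Mathlib
import Cfsg.Agent.Lib.Helper8.OFus.Defs

/-!
# S2720 / S2721, package HYP: the hyperbolic case

The space is the direct sum of two totally isotropic irreducible `A`-invariant subspaces `U`,
`U₁` which are dual to each other and not isomorphic.  We build an isometric involution `J`
swapping `U` and `U₁` and inverting `A`, a polynomial `b = p(A)` which is `c(A)` on `U` and the
identity on `U₁` (with `det (c(A)|U)` a non-square), and feed them to the spinor package.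
-/

set_option autoImplicit false

namespace Cfsg.Agent.Lib.Helper90.OFus

open Polynomial Module
open Cfsg.Agent.Lib.Helper8.WallBasic Cfsg.Agent.Lib.Helper8.WallForm
open Cfsg.Agent.Lib.Helper8.OFus
open Cfsg.Agent.Lib.Helper14 (reflLin)

universe u

section tools

variable {F : Type*} [Field F] {V : Type*} [AddCommGroup V] [Module F V]

theorem aeval_aeval_comm (A : V →ₗ[F] V) (g h : F[X]) (x : V) :
    aeval A g (aeval A h x) = aeval A h (aeval A g x) := by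
  rw [← aeval_mul_apply, ← aeval_mul_apply, mul_comm]

theorem aeval_pow_aeval_comm (A : V →ₗ[F] V) (k : ℕ) (g h : F[X]) (x : V) :
    aeval (A ^ k) g (aeval A h x) = aeval A h (aeval (A ^ k) g x) := by
  rw [aeval_pow_eq, aeval_aeval_comm]

theorem quad_eq_zero_of_polar_self {Q : QuadraticForm F V} (h2 : (2 : F) ≠ 0) {x : V}
    (hx : QuadraticMap.polarBilin Q x x = 0) : Q x = 0 := by
  have h1 : QuadraticMap.polar Q x x = 2 * Q x := by
    rw [QuadraticMap.polar_self]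
    simp [two_mul, two_smul]
  have h3 : (2 : F) * Q x = 0 := by
    rw [← h1]
    exact hx
  exact (mul_eq_zero.1 h3).resolve_left h2

theorem quad_add_of_isotropic {Q : QuadraticForm F V} {x y : V} (hx : Q x = 0) (hy : Q y = 0) :
    Q (x + y) = QuadraticMap.polarBilin Q x y := by
  show Q (x + y) = QuadraticMap.polar Q x y
  unfold QuadraticMap.polar
  rw [hx, hy, sub_zero, sub_zero]

end tools

/-- **Package HYP.** -/
theorem pkgHyp (hN : PkgNorm.{u}) (hS : PkgSpin.{u}) : PkgHyp.{u} := by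
  intro F _ _ V _ _ _ Q N A S U U₁ hU hU₁ hiso hiso₁ htop hdisj hann hne
  classical
  have SS : Setup (QuadraticMap.polarBilin Q) N A := S.setup
  have hann' : ann (A ^ (N - 1)) U₁ = ann A U := by
    have h := ann_pow_eq hann (N - 1)
    rw [SS.pow_inv_pow] at h
    exact h
  obtain ⟨u₀, hu₀, hu₀0⟩ := irr_exists_ne hU.1
  obtain ⟨v₀, hv₀, hv₀0⟩ := irr_exists_ne hU₁.1
  have hcycU : cyc A u₀ = U := irr_eq_cyc hU hu₀ hu₀0
  have hcycU₁ : cyc A v₀ = U₁ := irr_eq_cyc hU₁ hv₀ hv₀0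
  have hxc : ∀ x ∈ U, x ∈ cyc A u₀ := fun x hx => by rw [hcycU]; exact hx
  have hyc : ∀ y ∈ U₁, y ∈ cyc A v₀ := fun y hy => by rw [hcycU₁]; exact hy
  have hInvU' : Inv (A ^ (N - 1)) U := inv_pow hU.2.1 _
  have hInvU₁' : Inv (A ^ (N - 1)) U₁ := inv_pow hU₁.2.1 _
  obtain ⟨Φ, hΦ⟩ := exists_cyc_map A (A ^ (N - 1)) u₀ v₀ (by
    intro g hg
    have h1 : g ∈ ann A U := (irr_ann_iff hU hu₀ hu₀0 g).2 hg
    rw [← hann'] at h1
    exact h1 v₀ hv₀)
  obtain ⟨Ψ, hΨ⟩ := exists_cyc_map A (A ^ (N - 1)) v₀ u₀ (by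
    intro g hg
    have h1 : g ∈ ann A U₁ := (irr_ann_iff hU₁ hv₀ hv₀0 g).2 hg
    rw [hann] at h1
    exact h1 u₀ hu₀)
  obtain ⟨J, hJU, hJU₁⟩ := exists_glue U U₁ hdisj Φ Ψ
  have hΦU : ∀ x ∈ U, Φ x ∈ U₁ := by
    intro x hx
    obtain ⟨g, rfl⟩ := mem_cyc.1 (hxc x hx)
    rw [hΦ]
    exact inv_aeval hInvU₁' g v₀ hv₀
  have hΨU₁ : ∀ y ∈ U₁, Ψ y ∈ U := by
    intro y hy
    obtain ⟨g, rfl⟩ := mem_cyc.1 (hyc y hy)
    rw [hΨ]
    exact inv_aeval hInvU' g u₀ hu₀
  have hΨΦ : ∀ x ∈ U, Ψ (Φ x) = x := by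
    intro x hx
    obtain ⟨g, rfl⟩ := mem_cyc.1 (hxc x hx)
    rw [hΦ, aeval_pow_eq, hΨ, ← aeval_pow_eq, SS.pow_inv_pow]
  have hΦΨ : ∀ y ∈ U₁, Φ (Ψ y) = y := by
    intro y hy
    obtain ⟨g, rfl⟩ := mem_cyc.1 (hyc y hy)
    rw [hΨ, aeval_pow_eq, hΦ, ← aeval_pow_eq, SS.pow_inv_pow]
  have hdec : ∀ v : V, ∃ x ∈ U, ∃ y ∈ U₁, x + y = v := by
    intro v
    have hv : v ∈ U ⊔ U₁ := by rw [htop]; exact Submodule.mem_top
    exact Submodule.mem_sup.1 hv
  have hJJ : ∀ v, J (J v) = v := by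
    intro v
    obtain ⟨x, hx, y, hy, rfl⟩ := hdec v
    simp only [map_add]
    rw [hJU x hx, hJU₁ y hy, hJU₁ _ (hΦU x hx), hJU _ (hΨU₁ y hy), hΨΦ x hx, hΦΨ y hy]
  have hJA : ∀ (h : F[X]) (v : V), J (aeval A h v) = aeval (A ^ (N - 1)) h (J v) := by
    intro h v
    obtain ⟨x, hx, y, hy, rfl⟩ := hdec v
    simp only [map_add]
    rw [hJU x hx, hJU₁ y hy, hJU _ (inv_aeval hU.2.1 h x hx),
      hJU₁ _ (inv_aeval hU₁.2.1 h y hy), cyc_map_intertwine hΦ h (hxc x hx),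
      cyc_map_intertwine hΨ h (hyc y hy)]
  have hJA' : ∀ (h : F[X]) (v : V), J (aeval (A ^ (N - 1)) h v) = aeval A h (J v) := by
    intro h v
    have h1 := hJA h (J v)
    rw [hJJ] at h1
    rw [← h1, hJJ]
  have hQU : ∀ x ∈ U, Q x = 0 := fun x hx =>
    quad_eq_zero_of_polar_self S.two (hiso x hx x hx)
  have hQU₁ : ∀ y ∈ U₁, Q y = 0 := fun y hy =>
    quad_eq_zero_of_polar_self S.two (hiso₁ y hy y hy)
  have hJQ : ∀ v, Q (J v) = Q v := by
    intro v
    obtain ⟨x, hx, y, hy, rfl⟩ := hdec v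
    rw [map_add, hJU x hx, hJU₁ y hy, add_comm (Φ x) (Ψ y),
      quad_add_of_isotropic (hQU _ (hΨU₁ y hy)) (hQU₁ _ (hΦU x hx)),
      quad_add_of_isotropic (hQU x hx) (hQU₁ y hy)]
    obtain ⟨g, rfl⟩ := mem_cyc.1 (hxc x hx)
    obtain ⟨k, rfl⟩ := mem_cyc.1 (hyc y hy)
    rw [hΦ, hΨ, SS.adj_aeval', SS.adj_aeval, aeval_pow_aeval_comm]
  -- the non-square and the polynomial `c`
  have hringChar : ringChar F ≠ 2 := by
    intro h
    apply S.two
    have h1 := CharP.cast_eq_zero F (ringChar F)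
    rw [h] at h1
    exact_mod_cast h1
  obtain ⟨ν, hν⟩ := FiniteField.exists_nonsquare hringChar
  obtain ⟨c, hc⟩ := hN A U hU ν
  have hmaxU : (ann A U).IsMaximal := SS.ann_max hU
  have hmaxU₁ : (ann A U₁).IsMaximal := SS.ann_max hU₁
  have hneq : ann A U ≠ ann A U₁ := by rw [hann]; exact hne
  have hsup : ann A U ⊔ ann A U₁ = ⊤ := Ideal.IsMaximal.coprime_of_ne hmaxU hmaxU₁ hneq
  have h1mem : (1 : F[X]) ∈ ann A U ⊔ ann A U₁ := by rw [hsup]; exact Submodule.mem_top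
  obtain ⟨e₁, he₁, e₂, he₂, he⟩ := Submodule.mem_sup.1 h1mem
  have hcnot : c ∉ ann A U := by
    intro hcmem
    have hzero : (aeval A c).restrict (inv_aeval hU.2.1 c) = 0 := by
      apply LinearMap.ext
      intro x
      apply Subtype.ext
      exact hcmem x x.2
    rw [hzero, LinearMap.det_zero] at hc
    have hpos : 0 < finrank F ↥U := by
      rw [Module.finrank_pos_iff_exists_ne_zero]
      exact ⟨⟨u₀, hu₀⟩, fun h => hu₀0 (congrArg Subtype.val h)⟩
    rw [zero_pow hpos.ne'] at hc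
    exact hν (hc ▸ IsSquare.zero)
  obtain ⟨c', i, hi, hc'⟩ := hmaxU.exists_inv hcnot
  have he₂U : ∀ x ∈ U, aeval A e₂ x = x := by
    intro x hx
    have h1 : e₂ = 1 - e₁ := by rw [← he]; ring
    rw [h1, map_sub, map_one, LinearMap.sub_apply, Module.End.one_apply, he₁ x hx, sub_zero]
  have he₁U₁ : ∀ y ∈ U₁, aeval A e₁ y = y := by
    intro y hy
    have h1 : e₁ = 1 - e₂ := by rw [← he]; ring
    rw [h1, map_sub, map_one, LinearMap.sub_apply, Module.End.one_apply, he₂ y hy, sub_zero]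
  have hpoly : ∀ (d : F[X]), (∀ x ∈ U, aeval A (d * e₂ + e₁) x = aeval A d x) ∧
      (∀ y ∈ U₁, aeval A (d * e₂ + e₁) y = y) := by
    intro d
    constructor
    · intro x hx
      rw [map_add, LinearMap.add_apply, aeval_mul_apply, he₂U x hx, he₁ x hx, add_zero]
    · intro y hy
      rw [map_add, LinearMap.add_apply, aeval_mul_apply, he₂ y hy, map_zero, zero_add,
        he₁U₁ y hy]
  obtain ⟨p, hpU, hpU₁⟩ : ∃ p : F[X], (∀ x ∈ U, aeval A p x = aeval A c x) ∧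
      (∀ y ∈ U₁, aeval A p y = y) := ⟨_, hpoly c⟩
  obtain ⟨p', hp'U, hp'U₁⟩ : ∃ p' : F[X], (∀ x ∈ U, aeval A p' x = aeval A c' x) ∧
      (∀ y ∈ U₁, aeval A p' y = y) := ⟨_, hpoly c'⟩
  have hbb' : ∀ v, aeval A p (aeval A p' v) = v := by
    intro v
    obtain ⟨x, hx, y, hy, rfl⟩ := hdec v
    simp only [map_add]
    rw [hp'U x hx, hp'U₁ y hy, hpU _ (inv_aeval hU.2.1 c' x hx), hpU₁ y hy,
      aeval_aeval_comm, ← aeval_mul_apply]
    have h1 : c' * c = 1 - i := by rw [← hc']; ring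
    rw [h1, map_sub, map_one, LinearMap.sub_apply, Module.End.one_apply, hi x hx, sub_zero]
  have hb'b : ∀ v, aeval A p' (aeval A p v) = v := by
    intro v
    rw [aeval_aeval_comm]
    exact hbb' v
  have hJbJ : ∀ v, J (aeval A p (J v)) = aeval (A ^ (N - 1)) p v := by
    intro v
    rw [hJA, hJJ]
  have hadj : ∀ x y, QuadraticMap.polarBilin Q (aeval A p x) y =
      QuadraticMap.polarBilin Q x (J (aeval A p (J y))) := by
    intro x y
    rw [hJbJ, SS.adj_aeval]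
  have hcomm : ∀ v, aeval A p (J (aeval A p (J v))) =
      J (aeval A p (J (aeval A p v))) := by
    intro v
    rw [hJbJ, hJbJ, aeval_pow_aeval_comm]
  have hT : ∀ v, (J ∘ₗ aeval A p ∘ₗ J ∘ₗ aeval A p) v =
      aeval (A ^ (N - 1)) p (aeval A p v) := by
    intro v
    simp only [LinearMap.coe_comp, Function.comp_apply]
    rw [hJbJ]
  have hkerJ : ∀ x : V, x ∈ LinearMap.ker (J + 1) ↔ J x = -x := by
    intro x
    rw [LinearMap.mem_ker, LinearMap.add_apply, Module.End.one_apply, add_eq_zero_iff_eq_neg]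
  have hE : ∀ x ∈ LinearMap.ker (J + 1),
      (J ∘ₗ aeval A p ∘ₗ J ∘ₗ aeval A p) x ∈ LinearMap.ker (J + 1) := by
    intro x hx
    rw [hkerJ] at hx ⊢
    rw [hT, hJA', hJA, hx, map_neg, map_neg, aeval_pow_aeval_comm]
  -- the isomorphism `U ≃ ker (J + 1)`
  have hθmem : ∀ x : V, x - J x ∈ LinearMap.ker (J + 1) := by
    intro x
    rw [hkerJ, map_sub, hJJ, neg_sub]
  let θ₀ : ↥U →ₗ[F] ↥(LinearMap.ker (J + 1)) :=
    { toFun := fun x => ⟨(x : V) - J x, hθmem x⟩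
      map_add' := by
        intro x y
        apply Subtype.ext
        simp only [Submodule.coe_add, map_add]
        abel
      map_smul' := by
        intro a x
        apply Subtype.ext
        simp only [Submodule.coe_smul, map_smul, RingHom.id_apply, smul_sub] }
  have hθ₀ : ∀ x : ↥U, ((θ₀ x : ↥(LinearMap.ker (J + 1))) : V) = (x : V) - J x := fun x => rfl
  have hθinj : Function.Injective θ₀ := by
    rw [injective_iff_map_eq_zero]
    intro x hx
    have h1 : (x : V) - J x = 0 := by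
      rw [← hθ₀, hx]
      rfl
    have h2 : (x : V) = J x := sub_eq_zero.1 h1
    have h3 : (x : V) ∈ U ⊓ U₁ := by
      refine ⟨x.2, ?_⟩
      rw [SetLike.mem_coe, h2, hJU _ x.2]
      exact hΦU _ x.2
    rw [hdisj.eq_bot, Submodule.mem_bot] at h3
    exact Subtype.ext h3
  have hθsurj : Function.Surjective θ₀ := by
    intro w
    obtain ⟨x, hx, y, hy, hxy⟩ := hdec (w : V)
    have hw : J (w : V) = -(w : V) := (hkerJ _).1 w.2
    rw [← hxy, map_add, hJU x hx, hJU₁ y hy] at hw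
    -- Φ x + Ψ y = -(x + y)
    have h1 : Ψ y + x ∈ U ⊓ U₁ := by
      refine ⟨U.add_mem (hΨU₁ y hy) hx, ?_⟩
      have h2 : Ψ y + x = -(Φ x + y) := by
        have h3 : Ψ y + x + (Φ x + y) = 0 := by
          have h4 : Φ x + Ψ y + (x + y) = 0 := by rw [hw]; exact neg_add_cancel _
          rw [← h4]
          abel
        exact eq_neg_of_add_eq_zero_left h3
      rw [SetLike.mem_coe, h2]
      exact U₁.neg_mem (U₁.add_mem (hΦU x hx) hy)
    rw [hdisj.eq_bot, Submodule.mem_bot] at h1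
    have h5 : Φ x + y = 0 := by
      have h4 : Φ x + Ψ y + (x + y) = 0 := by rw [hw]; exact neg_add_cancel _
      have h6 : Φ x + y = Φ x + Ψ y + (x + y) - (Ψ y + x) := by abel
      rw [h6, h4, h1, sub_zero]
    refine ⟨⟨x, hx⟩, Subtype.ext ?_⟩
    rw [hθ₀]
    show x - J x = (w : V)
    rw [hJU x hx, ← hxy]
    have h7 : y = -Φ x := eq_neg_of_add_eq_zero_right h5
    rw [h7]
    abel
  let θ : ↥U ≃ₗ[F] ↥(LinearMap.ker (J + 1)) := LinearEquiv.ofBijective θ₀ ⟨hθinj, hθsurj⟩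
  have hθ : ∀ x : ↥U, ((θ x : ↥(LinearMap.ker (J + 1))) : V) = (x : V) - J x := fun x => rfl
  have hTU : ∀ x ∈ U, aeval (A ^ (N - 1)) p (aeval A p x) =
      aeval A c x := by
    intro x hx
    have hz : aeval A c x ∈ U := inv_aeval hU.2.1 c x hx
    rw [hpU x hx, ← hJbJ, hJU _ hz, hpU₁ _ (hΦU _ hz), ← hJU _ hz, hJJ]
  have hTJ : ∀ x ∈ U, aeval (A ^ (N - 1)) p (aeval A p (J x)) =
      J (aeval A c x) := by
    intro x hx
    have hJx : J x ∈ U₁ := by rw [hJU x hx]; exact hΦU x hx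
    rw [hpU₁ _ hJx, ← hJA, hpU x hx]
  have hdet : LinearMap.det ((J ∘ₗ aeval A p ∘ₗ J ∘ₗ
      aeval A p).restrict hE) = ν := by
    have hconj : (J ∘ₗ aeval A p ∘ₗ J ∘ₗ aeval A p).restrict hE =
        (θ : ↥U →ₗ[F] ↥(LinearMap.ker (J + 1))) ∘ₗ
          ((aeval A c).restrict (inv_aeval hU.2.1 c)) ∘ₗ
          (θ.symm : ↥(LinearMap.ker (J + 1)) →ₗ[F] ↥U) := by
      apply LinearMap.ext
      intro w
      obtain ⟨x, rfl⟩ := θ.surjective w
      simp only [LinearMap.coe_comp, LinearEquiv.coe_coe, Function.comp_apply,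
        LinearEquiv.symm_apply_apply]
      apply Subtype.ext
      rw [LinearMap.coe_restrict_apply, hθ, hθ, hT, map_sub, map_sub, hTU _ x.2, hTJ _ x.2]
      rfl
    rw [hconj, LinearMap.det_conj, hc]
  have hns : ¬ IsSquare (LinearMap.det ((J ∘ₗ aeval A p ∘ₗ J ∘ₗ
      aeval A p).restrict hE)) := by
    rw [hdet]
    exact hν
  obtain ⟨l, hl1, hl2, hl3, hl4⟩ := hS Q S.two S.nondeg J (aeval A p)
    (aeval A p') hJJ hJQ hbb' hb'b hadj hcomm hE hns
  refine ⟨l, hl1, hl2, hl3, ?_⟩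
  intro v
  rw [hl4]
  simp only [LinearMap.coe_comp, Function.comp_apply]
  have hJAX : ∀ w, J (A w) = (A ^ (N - 1)) (J w) := by
    intro w
    have h := hJA X w
    rwa [aeval_X_apply, aeval_X_apply] at h
  have hJA'X : ∀ w, J ((A ^ (N - 1)) w) = A (J w) := by
    intro w
    have h := hJA' X w
    rwa [aeval_X_apply, aeval_X_apply] at h
  have hb'A' : ∀ w, aeval A p' ((A ^ (N - 1)) w) =
      (A ^ (N - 1)) (aeval A p' w) := by
    intro w
    have h := aeval_pow_aeval_comm A (N - 1) X p' w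
    rw [aeval_X_apply, aeval_X_apply] at h
    exact h.symm
  rw [hJAX, hb'A', hJA'X, aeval_comm_apply]
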